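import Mathlib
import Cfsg.Agent.Lib.Helper56.TC
import Cfsg.Agent.Lib.Helper56.Fi24U8.C0
set_option autoImplicit false
set_option maxRecDepth 1000000

namespace Cfsg.Agent.Lib.Helper56.Fi24U8

open Cfsg.Agent.Lib.Helper56.TC Cfsg.Agent.Lib.Helper56.TC.Tabs

theorem uN_143 : Upto T.chkName 143 := upto_add (upto_zero T.chkName) rfl cN_0
theorem uV_120 : Upto T.chkV 120 := upto_add (upto_zero T.chkV) rfl cV_0

/-- The certificate is valid. -/
theorem cert : T.Cert where
  h0 := by decide +kernel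
  hrx := by decide +kernel
  hs0 := by decide +kernel
  hname := uN_143
  hV := uV_120

theorem orep_0 : T.orep 0 < T.N ∧ T.ol (T.orep 0) = 0 := by decide +kernel
theorem cnt_0 : countLt (fun v => Nat.beq (T.ol v) 0) T.N = 1 := by decide +kernel
theorem orep_1 : T.orep 1 < T.N ∧ T.ol (T.orep 1) = 1 := by decide +kernel
theorem cnt_1 : countLt (fun v => Nat.beq (T.ol v) 1) T.N = 56 := by decide +kernel
theorem orep_2 : T.orep 2 < T.N ∧ T.ol (T.orep 2) = 2 := by decide +kernel
theorem cnt_2 : countLt (fun v => Nat.beq (T.ol v) 2) T.N = 63 := by decide +kernel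

end Cfsg.Agent.Lib.Helper56.Fi24U8
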